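import Cfsg.Agent.Y5.Main

/-!
The spider relation of `Y₅₅₅` implies that the end nodes are the ninth powers of the Coxeter
elements of the `E₇` sub-diagrams: the final collapse of the translations.
-/

set_option autoImplicit false

namespace Cfsg.Agent.Y5

variable {G : Type*} [Group G] {g : ℕ → G}

/-- conjugates of the translation -/
def T (g : ℕ → G) (t : G) : ℕ → G
  | 0 => t
  | 1 => g 4 * t * g 4
  | 2 => g 3 * (g 4 * t * g 4) * g 3
  | 3 => g 2 * (g 3 * (g 4 * t * g 4) * g 3) * g 2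
  | 4 => g 1 * (g 2 * (g 3 * (g 4 * t * g 4) * g 3) * g 2) * g 1
  | _ => g 0 * (g 1 * (g 2 * (g 3 * (g 4 * t * g 4) * g 3) * g 2) * g 1) * g 0

lemma sq_conj {x t : G} (hx : x * x = 1) (ht : t * t = 1) : (x * t * x) * (x * t * x) = 1 := by
  calc (x * t * x) * (x * t * x) = x * (t * ((x * x) * t)) * x := by group
    _ = 1 := by rw [hx, one_mul, ht, mul_one, hx]

lemma T_sq (hS : Sys g) {t : G} (ht : t * t = 1) (k : ℕ) : T g t k * T g t k = 1 := by
  have h1 := sq_conj (hS.sq 4) ht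
  have h2 := sq_conj (hS.sq 3) h1
  have h3 := sq_conj (hS.sq 2) h2
  have h4 := sq_conj (hS.sq 1) h3
  have h5 := sq_conj (hS.sq 0) h4
  match k with
  | 0 => exact ht
  | 1 => exact h1
  | 2 => exact h2
  | 3 => exact h3
  | 4 => exact h4
  | n + 5 => exact h5

lemma t_sq (hS : Sys g) (h : ev g wS ^ 10 = 1) :
    (g 5 * ev g wZ) * (g 5 * ev g wZ) = 1 := by
  have h1 := (z_comm hS h 5 (by norm_num) (by norm_num)).eq
  have h2 : ev g wZ * ev g wZ = 1 := by
    rw [z_eq_r8 hS h, ← ev_append]; exact ev_eq_one hS c_H2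
  calc (g 5 * ev g wZ) * (g 5 * ev g wZ) = g 5 * (ev g wZ * g 5) * ev g wZ := by group
    _ = (g 5 * g 5) * (ev g wZ * ev g wZ) := by rw [← h1]; group
    _ = 1 := by rw [h2, hS.sq 5, mul_one]

lemma prodT (hS : Sys g) (h : ev g wS ^ 10 = 1) :
    T g (g 5 * ev g wZ) 0 * T g (g 5 * ev g wZ) 1 * T g (g 5 * ev g wZ) 2 *
      T g (g 5 * ev g wZ) 3 * T g (g 5 * ev g wZ) 4 * T g (g 5 * ev g wZ) 5 *
      (g 11 * T g (g 5 * ev g wZ) 5 * g 11) = 1 := by
  set t : G := g 5 * ev g wZ with ht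
  have htt : t * t = 1 := t_sq hS h
  have e0 : ev g wt0 = T g t 0 := by
    rw [show wt0 = [5] ++ wr8 by decide, ev_append, ← z_eq_r8 hS h]
    simp [T, ht]
  have e1 : ev g wt1 = T g t 1 := by
    rw [show wt1 = [4] ++ wt0 ++ [4] by decide, ev_append, ev_append, e0]; simp [T]
  have e2 : ev g wt2 = T g t 2 := by
    rw [show wt2 = [3] ++ wt1 ++ [3] by decide, ev_append, ev_append, e1]; simp [T]
  have e3 : ev g wt3 = T g t 3 := by
    rw [show wt3 = [2] ++ wt2 ++ [2] by decide, ev_append, ev_append, e2]; simp [T]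
  have e4 : ev g wt4 = T g t 4 := by
    rw [show wt4 = [1] ++ wt3 ++ [1] by decide, ev_append, ev_append, e3]; simp [T]
  have e5 : ev g wt5 = T g t 5 := by
    rw [show wt5 = [0] ++ wt4 ++ [0] by decide, ev_append, ev_append, e4]; simp [T]
  have e6 : ev g wt6 = g 11 * T g t 5 * g 11 := by
    rw [show wt6 = [11] ++ wt5 ++ [11] by decide, ev_append, ev_append, e5]; simp
  have hinv : ∀ x : G, x * x = 1 → x⁻¹ = x := fun x hx => inv_eq_of_mul_eq_one_left hx
  have hK := ev_eq_one hS c_K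
  simp only [ev_append, ev_reverse hS] at hK
  rw [e0, e1, e2, e3, e4, e5, e6, hinv _ (T_sq hS htt 0), hinv _ (T_sq hS htt 2),
    hinv _ (T_sq hS htt 4), hinv _ (sq_conj (hS.sq 11) (T_sq hS htt 5))] at hK
  have h0 : ev g wgh * T g t 0 * (ev g wgh)⁻¹ * (ev g wgh * T g t 0 * (ev g wgh)⁻¹) = 1 := by
    calc _ = ev g wgh * (T g t 0 * T g t 0) * (ev g wgh)⁻¹ := by group
      _ = 1 := by rw [T_sq hS htt 0]; group
  calc _ = T g t 0 * T g t 1 * T g t 2 * T g t 3 * T g t 4 * T g t 5 *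
      (g 11 * T g t 5 * g 11) *
      (ev g wgh * T g t 0 * (ev g wgh)⁻¹ * (ev g wgh * T g t 0 * (ev g wgh)⁻¹)) := by
        rw [h0, mul_one]
    _ = 1 := by rw [← hK]; simp only [mul_assoc]

/-- **The arm relation**: the end node of the first arm is the ninth power of a Coxeter element of
the `E₇` sub-diagram. -/
theorem arm (hS : Sys g) (h : ev g wS ^ 10 = 1) : g 5 = ev g wZ := by
  have h23 := spider_s23 hS h
  have hz := (z_swap hS h).1
  set t : G := g 5 * ev g wZ with ht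
  have htt : t * t = 1 := t_sq hS h
  have p1 := prodT hS h
  rw [← ht] at p1
  have p2 := prodT hS.s23 h23
  have ht' : (g ∘ Y5.s23) 5 * ev (g ∘ Y5.s23) wZ = t := by
    rw [← hz]; rfl
  rw [ht'] at p2
  have hT : ∀ k, T (g ∘ Y5.s23) t k = T g t k := by
    intro k
    match k with
    | 0 => rfl
    | 1 => rfl
    | 2 => rfl
    | 3 => rfl
    | 4 => rfl
    | n + 5 => rfl
  rw [hT, hT, hT, hT, hT, hT] at p2
  have p3 : g 11 * T g t 5 * g 11 = g 6 * T g t 5 * g 6 := by
    have : (g ∘ Y5.s23) 11 = g 6 := rfl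
    rw [this] at p2
    exact mul_left_cancel (p1.trans p2.symm)
  -- which nodes commute with `t`
  have hc : ∀ i, i < 16 → i ≠ 4 → i ≠ 5 → adj i 5 = false → Commute (g i) t := by
    intro i h1 h2 _ h4
    exact (show Commute (g i) (g 5) from hS.comm i 5 h4).mul_right (z_comm hS h i h1 h2)
  have hcc : ∀ i j (x : G), adj i j = false → Commute (g i) x → Commute (g i) (g j * x * g j) :=
    fun i j x hij hx => ((show Commute (g i) (g j) from hS.comm i j hij).mul_right hx).mul_right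
      (hS.comm i j hij)
  have hT1 : ∀ i, i < 16 → i ≠ 4 → i ≠ 5 → adj i 5 = false → adj i 4 = false →
      Commute (g i) (T g t 1) := fun i a1 a2 a3 a4 a5 => hcc i 4 _ a5 (hc i a1 a2 a3 a4)
  -- `c₂` commutes with `T 5` and `T 6`
  have c7 : Commute (g 7) (T g t 5) := by
    refine hcc 7 0 _ (by decide) (hcc 7 1 _ (by decide) (hcc 7 2 _ (by decide)
      (hcc 7 3 _ (by decide) (hcc 7 4 _ (by decide) (hc 7 (by norm_num) (by norm_num)
      (by norm_num) (by decide))))))
  have c76 : Commute (g 7) (g 6 * T g t 5 * g 6) := by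
    rw [← p3]; exact hcc 7 11 _ (by decide) c7
  have c6 : Commute (g 6) (T g t 5) :=
    braid_comm (hS.sq 7) (hS.sq 6) (hS.braid 7 6 (by decide)) c7 c76
  have c64 : Commute (g 6) (T g t 4) :=
    hcc 6 1 _ (by decide) (hcc 6 2 _ (by decide) (hcc 6 3 _ (by decide) (hcc 6 4 _ (by decide)
      (hc 6 (by norm_num) (by norm_num) (by norm_num) (by decide)))))
  have c04 : Commute (g 0) (T g t 4) :=
    braid_comm (hS.sq 6) (hS.sq 0) (hS.braid 6 0 (by decide)) c64 c6
  have c03 : Commute (g 0) (T g t 3) :=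
    hcc 0 2 _ (by decide) (hcc 0 3 _ (by decide) (hcc 0 4 _ (by decide)
      (hc 0 (by norm_num) (by norm_num) (by norm_num) (by decide))))
  have c13 : Commute (g 1) (T g t 3) :=
    braid_comm (hS.sq 0) (hS.sq 1) (hS.braid 0 1 (by decide)) c03 c04
  have c12 : Commute (g 1) (T g t 2) :=
    hcc 1 3 _ (by decide) (hcc 1 4 _ (by decide)
      (hc 1 (by norm_num) (by norm_num) (by norm_num) (by decide)))
  have c22 : Commute (g 2) (T g t 2) :=
    braid_comm (hS.sq 1) (hS.sq 2) (hS.braid 1 2 (by decide)) c12 c13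
  have c21 : Commute (g 2) (T g t 1) :=
    hcc 2 4 _ (by decide) (hc 2 (by norm_num) (by norm_num) (by norm_num) (by decide))
  have c31 : Commute (g 3) (T g t 1) :=
    braid_comm (hS.sq 2) (hS.sq 3) (hS.braid 2 3 (by decide)) c21 c22
  have c30 : Commute (g 3) (T g t 0) :=
    hc 3 (by norm_num) (by norm_num) (by norm_num) (by decide)
  have c40 : Commute (g 4) t :=
    braid_comm (hS.sq 3) (hS.sq 4) (hS.braid 3 4 (by decide)) c30 c31
  -- conclusion
  have hf : g 5 * g 5 = 1 := hS.sq 5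
  have hzz : ev g wZ * ev g wZ = 1 := by
    rw [z_eq_r8 hS h, ← ev_append]; exact ev_eq_one hS c_H2
  have hb1 : g 4 * g 5 * g 4 = g 5 * g 4 * g 5 := hS.braid 4 5 (by decide)
  have hb2 : g 4 * ev g wZ * g 4 = ev g wZ * g 4 * ev g wZ := by
    rw [z_eq_r8 hS h]
    have := ev_eq hS c_L
    simp only [ev_append, ev_cons, ev_nil, mul_one] at this
    exact this
  have hfz : g 5 * ev g wZ = ev g wZ * g 5 :=
    (z_comm hS h 5 (by norm_num) (by norm_num)).eq
  have e1 : g 5 * g 4 * g 5 = ev g wZ * g 4 * ev g wZ := by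
    have h1 := c40.eq
    rw [ht] at h1
    calc g 5 * g 4 * g 5 = (g 5 * g 4 * g 5) * (ev g wZ * ev g wZ) := by rw [hzz, mul_one]
      _ = g 5 * (g 4 * (g 5 * ev g wZ)) * ev g wZ := by group
      _ = g 5 * ((g 5 * ev g wZ) * g 4) * ev g wZ := by rw [h1]
      _ = (g 5 * g 5) * (ev g wZ * g 4 * ev g wZ) := by group
      _ = ev g wZ * g 4 * ev g wZ := by rw [hf, one_mul]
  have e2 : g 4 * g 5 * g 4 = g 4 * ev g wZ * g 4 := by rw [hb1, hb2, e1]
  exact mul_left_cancel (mul_right_cancel e2)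

end Cfsg.Agent.Y5
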