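import Mathlib

/-!
Certificates for word identities in the Coxeter group of the diagram `Y₅₅₅`.
Letters are natural numbers `< 16`:
`a = 0; b₁ c₁ d₁ e₁ f₁ = 1..5; b₂ c₂ d₂ e₂ f₂ = 6..10; b₃ c₃ d₃ e₃ f₃ = 11..15`.
-/

set_option autoImplicit false

namespace Cfsg.Agent.Y5

/-- adjacency in the diagram `Y₅₅₅` -/
def adj (i j : ℕ) : Bool :=
  Nat.blt i 16 && (Nat.blt j 16 &&
    Nat.testBit 28949126597169582957497496496304760331419390504024672976625138862233473058882
      (16 * i + j))

/-- a family of elements satisfying the Coxeter relations of `Y₅₅₅` -/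
structure Sys {G : Type*} [Group G] (g : ℕ → G) : Prop where
  sq : ∀ i, g i * g i = 1
  comm : ∀ i j, adj i j = false → g i * g j = g j * g i
  braid : ∀ i j, adj i j = true → g i * g j * g i = g j * g i * g j

/-- the value of a word -/
def ev {G : Type*} [Group G] (g : ℕ → G) (w : List ℕ) : G := (w.map g).prod

/-- one step of the zipper machine -/
def step (d : ℕ) (l r : List ℕ) (k : List ℕ → List ℕ → Bool) : Bool :=
  match d with
  | 0 => match r with
    | x :: r' => k (x :: l) r'
    | [] => false
  | 1 => match l with
    | x :: l' => k l' (x :: r)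
    | [] => false
  | 2 => match r with
    | x :: y :: r' => (!(adj x y)) && k l (y :: x :: r')
    | _ => false
  | 3 => match r with
    | x :: y :: z :: r' => Nat.beq x z && (adj x y && k l (y :: x :: y :: r'))
    | _ => false
  | 4 => match r with
    | x :: y :: r' => Nat.beq x y && k l r'
    | _ => false
  | _ => false

/-- the zipper machine -/
def run : ℕ → ℕ → List ℕ → List ℕ → Bool
  | 0, _, l, r => l.isEmpty && r.isEmpty
  | n + 1, c, l, r => step (c % 8) l r (run n (c / 8))

section sound

variable {G : Type*} [Group G] {g : ℕ → G}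

/-- the value of a zipper -/
def vz (g : ℕ → G) (l r : List ℕ) : G := ev g l.reverse * ev g r

@[simp] lemma ev_nil : ev g [] = 1 := by simp [ev]

@[simp] lemma ev_cons (x : ℕ) (w : List ℕ) : ev g (x :: w) = g x * ev g w := by simp [ev]

@[simp] lemma ev_append (v w : List ℕ) : ev g (v ++ w) = ev g v * ev g w := by simp [ev]

lemma vz_right (x : ℕ) (l r : List ℕ) : vz g (x :: l) r = vz g l (x :: r) := by
  simp [vz, mul_assoc]

lemma step_sound (hS : Sys g) {d : ℕ} {l r : List ℕ} {k : List ℕ → List ℕ → Bool}
    (hk : ∀ l' r', k l' r' = true → vz g l' r' = 1) (h : step d l r k = true) :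
    vz g l r = 1 := by
  unfold step at h
  split at h
  · split at h
    · rw [← vz_right]; exact hk _ _ h
    · exact absurd h (by simp)
  · split at h
    · rw [vz_right]; exact hk _ _ h
    · exact absurd h (by simp)
  · split at h
    · rename_i x y r'
      rw [Bool.and_eq_true] at h
      have h1 : adj x y = false := by simpa using h.1
      have h2 := hk _ _ h.2
      rw [← h2]
      simp only [vz, ev_cons]
      rw [← mul_assoc (g x), hS.comm x y h1, mul_assoc (g y)]
    · exact absurd h (by simp)
  · split at h
    · rename_i x y z r'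
      rw [Bool.and_eq_true, Bool.and_eq_true] at h
      have h0 : x = z := Nat.eq_of_beq_eq_true h.1
      subst h0
      have h2 := hk _ _ h.2.2
      rw [← h2]
      simp only [vz, ev_cons]
      have h3 := hS.braid x y h.2.1
      congr 1
      rw [← mul_assoc, ← mul_assoc, h3]
      simp only [mul_assoc]
    · exact absurd h (by simp)
  · split at h
    · rename_i x y r'
      rw [Bool.and_eq_true] at h
      have h0 : x = y := Nat.eq_of_beq_eq_true h.1
      subst h0
      have h2 := hk _ _ h.2
      rw [← h2]
      simp only [vz, ev_cons]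
      rw [← mul_assoc (g x), hS.sq x, one_mul]
    · exact absurd h (by simp)
  · exact absurd h (by simp)

theorem run_sound (hS : Sys g) : ∀ (n c : ℕ) (l r : List ℕ), run n c l r = true → vz g l r = 1
  | 0, _, l, r, h => by
      rw [run, Bool.and_eq_true, List.isEmpty_iff, List.isEmpty_iff] at h
      rw [h.1, h.2]; simp [vz]
  | n + 1, c, l, r, h => by
      rw [run] at h
      exact step_sound hS (fun l' r' h' => run_sound hS n _ l' r' h') h

theorem ev_eq_one (hS : Sys g) {n c : ℕ} {w : List ℕ} (h : run n c [] w = true) :
    ev g w = 1 := by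
  have := run_sound hS n c [] w h
  simpa [vz] using this

lemma ev_reverse (hS : Sys g) (w : List ℕ) : ev g w.reverse = (ev g w)⁻¹ := by
  induction w with
  | nil => simp
  | cons x w ih =>
      rw [List.reverse_cons, ev_append, ih, ev_cons, ev_cons, ev_nil, mul_one, mul_inv_rev]
      congr 1
      exact eq_inv_of_mul_eq_one_left (hS.sq x)

theorem ev_eq (hS : Sys g) {n c : ℕ} {v w : List ℕ} (h : run n c [] (v ++ w.reverse) = true) :
    ev g v = ev g w := by
  have h1 := ev_eq_one hS h
  rw [ev_append, ev_reverse hS] at h1
  exact mul_inv_eq_one.mp h1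

end sound

end Cfsg.Agent.Y5
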