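import Cfsg.Agent.Y5.Cert

/-!
The spider relation of `Y₅₅₅` implies that the end nodes are the ninth powers of the Coxeter
elements of the `E₇` sub-diagrams.
-/

set_option autoImplicit false

namespace Cfsg.Agent.Y5

variable {G : Type*} [Group G] {g : ℕ → G}

lemma ev_rep (n : ℕ) (w : List ℕ) : ev g (List.replicate n w).flatten = ev g w ^ n := by
  induction n with
  | zero => simp
  | succ n ih => rw [List.replicate_succ, List.flatten_cons, ev_append, ih, pow_succ']

lemma ev_map (σ : ℕ → ℕ) (w : List ℕ) : ev (g ∘ σ) w = ev g (w.map σ) := by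
  simp [ev]

/-- exchange of the arms 2 and 3 -/
def s23 (i : ℕ) : ℕ := if i < 6 then i else if i < 11 then i + 5 else if i < 16 then i - 5 else i

/-- exchange of the arms 1 and 2 -/
def s12 (i : ℕ) : ℕ := if i < 1 then i else if i < 6 then i + 5 else if i < 11 then i - 5 else i

lemma adj_lt {i j : ℕ} (h : adj i j = true) : i < 16 ∧ j < 16 := by
  unfold adj at h
  simp only [Bool.and_eq_true, Nat.blt_eq] at h
  exact ⟨h.1, h.2.1⟩

lemma adj_s23 (i j : ℕ) : adj (s23 i) (s23 j) = adj i j := by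
  have key : ∀ i j : Fin 16, adj (s23 i) (s23 j) = adj i j := by decide +kernel
  by_cases hi : i < 16
  · by_cases hj : j < 16
    · exact key ⟨i, hi⟩ ⟨j, hj⟩
    · have h1 : s23 j = j := by unfold s23; split_ifs <;> omega
      rw [h1]
      have h2 : ∀ i', adj i' j = false := fun i' => by
        by_contra h; exact hj (adj_lt (by simpa using h)).2
      rw [h2, h2]
  · have h1 : s23 i = i := by unfold s23; split_ifs <;> omega
    rw [h1]
    have h2 : ∀ j', adj i j' = false := fun j' => by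
      by_contra h; exact hi (adj_lt (by simpa using h)).1
    rw [h2, h2]

lemma adj_s12 (i j : ℕ) : adj (s12 i) (s12 j) = adj i j := by
  have key : ∀ i j : Fin 16, adj (s12 i) (s12 j) = adj i j := by decide +kernel
  by_cases hi : i < 16
  · by_cases hj : j < 16
    · exact key ⟨i, hi⟩ ⟨j, hj⟩
    · have h1 : s12 j = j := by unfold s12; split_ifs <;> omega
      rw [h1]
      have h2 : ∀ i', adj i' j = false := fun i' => by
        by_contra h; exact hj (adj_lt (by simpa using h)).2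
      rw [h2, h2]
  · have h1 : s12 i = i := by unfold s12; split_ifs <;> omega
    rw [h1]
    have h2 : ∀ j', adj i j' = false := fun j' => by
      by_contra h; exact hi (adj_lt (by simpa using h)).1
    rw [h2, h2]

lemma Sys.s23 (hS : Sys g) : Sys (g ∘ s23) where
  sq i := hS.sq _
  comm i j h := hS.comm _ _ (by rw [adj_s23]; exact h)
  braid i j h := hS.braid _ _ (by rw [adj_s23]; exact h)

lemma Sys.s12 (hS : Sys g) : Sys (g ∘ s12) where
  sq i := hS.sq _
  comm i j h := hS.comm _ _ (by rw [adj_s12]; exact h)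
  braid i j h := hS.braid _ _ (by rw [adj_s12]; exact h)

/-- the spider relation is invariant under exchange of the arms 2 and 3 -/
lemma spider_s23 (hS : Sys g) (h : ev g wS ^ 10 = 1) : ev (g ∘ s23) wS ^ 10 = 1 := by
  have h1 : ev g (wx ++ wS.reverse ++ wx.reverse) = ev g wS23 := ev_eq hS c_swap
  rw [ev_map, show wS.map Y5.s23 = wS23 by decide, ← h1, ev_append, ev_append, ev_reverse hS,
    ev_reverse hS, conj_pow, inv_pow, h]
  simp

/-- the spider relation is invariant under rotation of the arms -/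
lemma spider_rot (h : ev g wS ^ 10 = 1) : ev g [0, 6, 7, 0, 11, 12, 0, 1, 2] ^ 10 = 1 := by
  have h1 : ev g wS = ev g [0, 1, 2] * ev g [0, 6, 7, 0, 11, 12] := by
    rw [← ev_append]; rfl
  have h2 : ev g [0, 6, 7, 0, 11, 12, 0, 1, 2] = (ev g [0, 1, 2])⁻¹ * ev g wS * ev g [0, 1, 2] := by
    rw [h1, show ([0, 6, 7, 0, 11, 12, 0, 1, 2] : List ℕ) = [0, 6, 7, 0, 11, 12] ++ [0, 1, 2] from rfl,
      ev_append]
    group
  have h3 : (ev g [0, 1, 2])⁻¹ * ev g wS * ev g [0, 1, 2] =
      (ev g [0, 1, 2])⁻¹ * ev g wS * ((ev g [0, 1, 2])⁻¹)⁻¹ := by rw [inv_inv]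
  rw [h2, h3, conj_pow, h]
  simp

/-- the spider relation is invariant under exchange of the arms 1 and 2 -/
lemma spider_s12 (hS : Sys g) (h : ev g wS ^ 10 = 1) : ev (g ∘ s12) wS ^ 10 = 1 := by
  have h1 := spider_s23 hS h
  rw [ev_map] at h1 ⊢
  have h2 : ev g (wS.map Y5.s12) =
      ev g [0, 6, 7] * ev g (wS.map Y5.s23) * (ev g [0, 6, 7])⁻¹ := by
    rw [show wS.map Y5.s12 = [0, 6, 7] ++ [0, 1, 2, 0, 11, 12] by decide,
      show wS.map Y5.s23 = [0, 1, 2, 0, 11, 12] ++ [0, 6, 7] by decide, ev_append, ev_append]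
    group
  rw [h2, conj_pow, h1, mul_one, mul_inv_cancel]

/-- `z₁ = z₁'` -/
lemma z_swap (hS : Sys g) (h : ev g wS ^ 10 = 1) :
    ev g wZ = ev (g ∘ s23) wZ ∧ ev g wr7 = ev g wr7p := by
  have h10 : ev g wS10 = 1 := by
    rw [show wS10 = (List.replicate 10 wS).flatten by decide, ev_rep, h]
  have hU : ev g wU = 1 := by
    have h1 : ev g (wg1 ++ wS10 ++ wg1.reverse ++ wg2 ++ wS10 ++ wg2.reverse) = ev g wU :=
      ev_eq hS c_U
    rw [← h1]
    simp only [ev_append, ev_reverse hS, h10]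
    group
  have h7 : ev g wr7 = ev g wr7p := by
    have h1 : ev g (wU ++ wr7 ++ wU.reverse) = ev g wr7p := ev_eq hS c_B2
    rw [← h1]
    simp only [ev_append, ev_reverse hS, hU]
    group
  refine ⟨?_, h7⟩
  rw [ev_map, show wZ.map Y5.s23 = wZ23 by decide, ev_eq hS c_B3, ev_eq hS c_B4]
  simp only [ev_append, h7]

lemma comm_of {x z : G} (hx : x * x = 1) (h : x * z * x * z⁻¹ = 1) : Commute x z := by
  have h1 : x * z * x = z := mul_inv_eq_one.mp h
  have h2 : x * (x * z * x) = x * z := by rw [h1]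
  have h3 : x * (x * z * x) = z * x := by
    rw [mul_assoc, ← mul_assoc x x, hx, one_mul]
  exact (h2.symm.trans h3)

lemma comm_cert (hS : Sys g) {i : ℕ} {w : List ℕ} {n c : ℕ}
    (h : run n c [] ([i] ++ w ++ [i] ++ w.reverse) = true) : Commute (g i) (ev g w) := by
  have h1 := ev_eq_one hS h
  simp only [ev_append, ev_reverse hS, ev_cons, ev_nil, mul_one] at h1
  exact comm_of (hS.sq i) h1

/-- `z₁` commutes with all nodes except `e₁` -/
lemma z_comm (hS : Sys g) (h : ev g wS ^ 10 = 1) (i : ℕ) (hi : i < 16) (hi4 : i ≠ 4) :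
    Commute (g i) (ev g wZ) := by
  have hz : ev g wZ = ev g wZ23 := by
    rw [(z_swap hS h).1, ev_map]
    exact congrArg _ (by decide)
  interval_cases i
  · exact comm_cert hS c_C0
  · exact comm_cert hS c_C1
  · exact comm_cert hS c_C2
  · exact comm_cert hS c_C3
  · exact absurd rfl hi4
  · exact comm_cert hS c_C5
  · exact comm_cert hS c_C6
  · exact comm_cert hS c_C7
  · rw [hz]; exact comm_cert hS c_C8
  · exact comm_cert hS c_C9
  · exact comm_cert hS c_C10
  · exact comm_cert hS c_C11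
  · rw [hz]; exact comm_cert hS c_C12
  · exact comm_cert hS c_C13
  · exact comm_cert hS c_C14
  · exact comm_cert hS c_C15

lemma commute_word {x : G} : ∀ (w : List ℕ), (∀ i ∈ w, Commute (g i) x) → Commute (ev g w) x
  | [], _ => by simp
  | i :: w, h => by
      rw [ev_cons]
      exact (h i (by simp)).mul_left (commute_word w fun j hj => h j (by simp [hj]))

/-- the reflection in the highest root of `E₈` is `z₁` -/
theorem z_eq_r8 (hS : Sys g) (h : ev g wS ^ 10 = 1) : ev g wZ = ev g wr8 := by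
  have hz7 : ev g wZ = ev g (wD4 ++ [3] ++ wre ++ wr7) := ev_eq hS c_B3
  -- `z₂` commutes with the nodes other than `e₂`
  have hz2 : ∀ i, i < 16 → i ≠ 9 → Commute (g i) (ev g wZ12) := by
    intro i hi hi9
    have h1 := z_comm hS.s12 (spider_s12 hS h) (Y5.s12 i)
      (by unfold Y5.s12; split_ifs <;> omega) (by unfold Y5.s12; split_ifs <;> omega)
    rw [ev_map, show wZ.map Y5.s12 = wZ12 by decide] at h1
    have h2 : (g ∘ Y5.s12) (Y5.s12 i) = g i := by
      have : Y5.s12 (Y5.s12 i) = i := by unfold Y5.s12; split_ifs <;> omega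
      simp [this]
    rwa [h2] at h1
  have hz2e : ev g wZ12 = ev g (wD4 ++ [8] ++ wrep ++ wrtp) := ev_eq hS c_D1
  -- `d₂` commutes with the reflection `r₇`
  have hd7 : Commute (g 8) (ev g wr7) := by
    have h1 : Commute (g 8) (ev g wZ) := z_comm hS h 8 (by norm_num) (by norm_num)
    have h2 : Commute (g 8) (ev g (wD4 ++ [3] ++ wre)) := comm_cert hS c_D0
    have h3 : ev g wr7 = (ev g (wD4 ++ [3] ++ wre))⁻¹ * ev g wZ := by
      rw [hz7, ev_append (wD4 ++ [3] ++ wre) wr7]; group
    rw [h3]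
    exact h2.inv_right.mul_right h1
  -- the reflections `s_i`
  have hs : ∀ (u y s w : List ℕ), ev g (u ++ s ++ u.reverse ++ [8]) = 1 →
      ev g (u ++ y ++ u.reverse) = ev g wr7 → ev g (y ++ s ++ y.reverse) = ev g w →
      ev g w = ev g s := by
    intro u y s w h1 h2 h3
    simp only [ev_append, ev_reverse hS, ev_cons, ev_nil, mul_one] at h1 h2 h3
    have h8 : ev g u * ev g s * (ev g u)⁻¹ = g 8 := by
      rw [mul_eq_one_iff_eq_inv] at h1
      rw [h1]; exact inv_eq_of_mul_eq_one_left (hS.sq 8)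
    have hc : Commute (ev g s) (ev g y) := by
      have h4 : ev g s = (ev g u)⁻¹ * g 8 * ev g u := by rw [← h8]; group
      have h5 : ev g y = (ev g u)⁻¹ * ev g wr7 * ev g u := by rw [← h2]; group
      rw [h4, h5]
      have h6 := hd7.eq
      change (ev g u)⁻¹ * g 8 * ev g u * ((ev g u)⁻¹ * ev g wr7 * ev g u) =
        (ev g u)⁻¹ * ev g wr7 * ev g u * ((ev g u)⁻¹ * g 8 * ev g u)
      calc _ = (ev g u)⁻¹ * (g 8 * ev g wr7) * ev g u := by group
        _ = (ev g u)⁻¹ * (ev g wr7 * g 8) * ev g u := by rw [h6]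
        _ = _ := by group
    rw [← h3, ← hc.eq]; group
  have hs1 : ev g ws1 = ev g [8] := hs wu1 wy1 [8] ws1 (ev_eq_one hS c_E1) (ev_eq hS c_F1)
    (ev_eq hS c_G1)
  have hs2 : ev g ws2 = ev g wrep := hs wu2 wy2 wrep ws2 (ev_eq_one hS c_E2) (ev_eq hS c_F2)
    (ev_eq hS c_G2)
  have hs3 : ev g ws3 = ev g wrtp := hs wu3 wy3 wrtp ws3 (ev_eq_one hS c_E3) (ev_eq hS c_F3)
    (ev_eq hS c_G3)
  -- the frame
  have hJ : ev g (ww ++ ([3] ++ wre ++ wr7 ++ wr8 ++ ws1 ++ ws2 ++ ws3) ++ ww.reverse) =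
      ev g wZ12 := ev_eq hS c_J
  have hw : Commute (ev g ww) (ev g wZ12) := by
    refine commute_word ww fun i hi => ?_
    have : ∀ i ∈ ww, i < 16 ∧ i ≠ 9 := by decide
    exact hz2 i (this i hi).1 (this i hi).2
  have hzF : ev g ([3] ++ wre ++ wr7 ++ wr8 ++ ws1 ++ ws2 ++ ws3) = ev g wZ12 := by
    rw [ev_append (ww ++ _), ev_append ww, ev_reverse hS] at hJ
    have h1 : ev g ([3] ++ wre ++ wr7 ++ wr8 ++ ws1 ++ ws2 ++ ws3) =
        (ev g ww)⁻¹ * (ev g wZ12 * ev g ww) := by rw [← hJ]; group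
    rw [h1, ← hw.eq]; group
  have hD : ev g ([3] ++ wre ++ wr7 ++ wr8) = ev g wD4 := by
    have h1 : ev g ([3] ++ wre ++ wr7 ++ wr8) * (ev g [8] * ev g wrep * ev g wrtp) =
        ev g wD4 * (ev g [8] * ev g wrep * ev g wrtp) := by
      calc _ = ev g ([3] ++ wre ++ wr7 ++ wr8 ++ ws1 ++ ws2 ++ ws3) := by
            simp only [ev_append, hs1, hs2, hs3, mul_assoc]
        _ = ev g (wD4 ++ [8] ++ wrep ++ wrtp) := by rw [hzF, hz2e]
        _ = _ := by simp only [ev_append, mul_assoc]
    exact mul_right_cancel h1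
  have hD2 : ev g wD4 * ev g wD4 = 1 := by rw [← ev_append]; exact ev_eq_one hS c_H1
  have h82 : ev g wr8 * ev g wr8 = 1 := by rw [← ev_append]; exact ev_eq_one hS c_H2
  have h1 : ev g ([3] ++ wre ++ wr7) = ev g wD4 * ev g wr8 := by
    rw [← hD, ev_append _ wr8, mul_assoc, h82, mul_one]
  rw [hz7, show wD4 ++ [3] ++ wre ++ wr7 = wD4 ++ ([3] ++ wre ++ wr7) by
    simp only [List.append_assoc], ev_append wD4, h1, ← mul_assoc, hD2, one_mul]

lemma braid_comm {x y t : G} (hx : x * x = 1) (hy : y * y = 1) (hb : x * y * x = y * x * y)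
    (h1 : Commute x t) (h2 : Commute x (y * t * y)) : Commute y t := by
  have hyi : y⁻¹ = y := inv_eq_of_mul_eq_one_left hy
  have hxi : x⁻¹ = x := inv_eq_of_mul_eq_one_left hx
  have h3 : Commute (y * x * y) t := by
    have h4 : Commute (y * x * y⁻¹) (y * (y * t * y) * y⁻¹) := by
      have := h2.eq
      change _ = _
      calc y * x * y⁻¹ * (y * (y * t * y) * y⁻¹) = y * (x * (y * t * y)) * y⁻¹ := by group
        _ = y * ((y * t * y) * x) * y⁻¹ := by rw [this]
        _ = _ := by group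
    have h5 : y * (y * t * y) * y⁻¹ = t := by
      rw [← mul_assoc, ← mul_assoc, hy]; group
    rwa [h5, hyi] at h4
  have h6 : y = x * (y * x * y) * x := by
    rw [← hb]
    calc y = (x * x) * y * (x * x) := by rw [hx]; group
      _ = _ := by group
  rw [h6]
  exact (h1.mul_left h3).mul_left h1

end Cfsg.Agent.Y5
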